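import Mathlib
import Cfsg.Agent.Lib.Helper19.DG33.Model
import Cfsg.Agent.S0283

/-!
# DG33 (S3670) sub-package [RPERF]: the model `UJ 3 σ` of `SU(3,3)` is perfect
-/

set_option autoImplicit false

namespace Cfsg.Agent.Lib.Helper10.DG33

open Cfsg Cfsg.Agent.Lib.Helper14.DG33 Cfsg.Agent.Lib.Helper19.DG33 Cfsg.Agent.Lib.Helper45
  Cfsg.Agent.Lib.Helper86.Un Cfsg.Agent.Lib.Helper86.SU3

universe u

theorem pkgRPerf : PkgRPerf.{u} := by
  intro hIso F _ _ hF
  obtain ⟨e⟩ := hIso F hF
  haveI hs : IsSimpleGroup (Cfsg.PSU 3 F 3) := Cfsg.Agent.S0283.result hF 3 le_rfl (by decide)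
  haveI hG : IsSimpleGroup (UJ 3 (sigmaQ hF)) := e.isSimpleGroup
  have hcard : Nat.card (UJ 3 (sigmaQ hF)) = 6048 := by
    have h0 := card_UJ3 hF 2 rfl
    rw [h0]
    norm_num
  haveI : Finite (UJ 3 (sigmaQ hF)) := Nat.finite_of_card_ne_zero (by rw [hcard]; norm_num)
  rcases (inferInstance : (commutator (UJ 3 (sigmaQ hF))).Normal).eq_bot_or_eq_top with h | h
  · exfalso
    rw [commutator_eq_bot_iff_center_eq_top] at h
    letI : CommGroup (UJ 3 (sigmaQ hF)) :=
      { (inferInstance : Group (UJ 3 (sigmaQ hF))) with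
        mul_comm := fun a b => by
          have hb : b ∈ Subgroup.center (UJ 3 (sigmaQ hF)) := by
            rw [h]
            trivial
          exact Subgroup.mem_center_iff.mp hb a }
    have hp := IsSimpleGroup.prime_card (α := UJ 3 (sigmaQ hF))
    rw [hcard] at hp
    norm_num at hp
  · exact h

end Cfsg.Agent.Lib.Helper10.DG33
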